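import Cfsg.Agent.Leech.CrossStab
import Cfsg.Agent.Leech.Keys
import Cfsg.Agent.CrossMax.Data

/-!
The images of the standard cross under a subgroup containing its stabiliser: closure under sign
changes and permutations, and reduction of normalised vectors by certified double products.
-/

set_option autoImplicit false
set_option Elab.async false

namespace Cfsg.Agent.CrossMax

open Cfsg Cfsg.Agent.Golay Cfsg.Agent.Leech

variable {H : Subgroup Co0}

/-- `x` is an image of `8e∞` under an element of `H`. -/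
def InO (H : Subgroup Co0) (x : GolayPt → ℤ) : Prop := ∃ h ∈ H, (h • crossL none).1 = x

theorem InO.mem {x : GolayPt → ℤ} (h : InO H x) : x ∈ leechLattice := by
  obtain ⟨g, -, rfl⟩ := h
  exact Subtype.prop _

theorem InO.sqNorm_eq {x : GolayPt → ℤ} (h : InO H x) : sqNorm x = 64 := by
  obtain ⟨g, -, rfl⟩ := h
  exact (g.2.2 _).trans (sqNorm_cross none)

theorem InO.smul {x : GolayPt → ℤ} (h : InO H x) {k : Co0} (hk : k ∈ H) :
    InO H (k • (⟨x, h.mem⟩ : leechLattice)).1 := by
  obtain ⟨g, hg, he⟩ := id h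
  refine ⟨k * g, mul_mem hk hg, ?_⟩
  rw [mul_smul, show g • crossL none = (⟨x, h.mem⟩ : leechLattice) from Subtype.ext he]

theorem preserves_of_flip {c : Finset GolayPt}
    (hc : c ∈ supports (golayCode : Set (GolayPt → ZMod 2))) :
    PreservesCross (toCo0 (isAut_flipOn hc)) := by
  refine preservesCross_iff.mpr ⟨none, ?_⟩
  have e : (toCo0 (isAut_flipOn hc) • crossL none).1 = flipOn c (Leech.cross none) := rfl
  rw [e]
  by_cases h : none ∈ c
  · refine Or.inr (funext fun p => ?_)
    by_cases hp : p = none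
    · subst hp; simp [flipOn, h]
    · simp [flipOn, Leech.cross, hp]
  · refine Or.inl (funext fun p => ?_)
    by_cases hp : p = none
    · subst hp; simp [flipOn, h]
    · simp [flipOn, Leech.cross, hp]

theorem preserves_of_comp {σ : Equiv.Perm GolayPt} (hσ : σ ∈ M24) :
    PreservesCross (toCo0 (isAut_comp hσ)) := by
  refine preservesCross_iff.mpr ⟨σ.symm none, Or.inl (funext fun p => ?_)⟩
  have e : (toCo0 (isAut_comp hσ) • crossL none).1 p = Leech.cross none (σ p) := rfl
  rw [e]
  simp only [Leech.cross]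
  exact if_congr (by rw [Equiv.eq_symm_apply]) rfl rfl

theorem InO.comp (hN : ∀ g, PreservesCross g → g ∈ H) {x : GolayPt → ℤ} (h : InO H x)
    {σ : Equiv.Perm GolayPt} (hσ : σ ∈ M24) : InO H (x ∘ σ) :=
  h.smul (hN _ (preserves_of_comp hσ))

theorem InO.flipMask (hN : ∀ g, PreservesCross g → g ∈ H) {x : GolayPt → ℤ} (h : InO H x)
    (k : ℕ) : InO H (Leech.flipMask (Golay.enc k) x) := by
  have e : Leech.flipMask (Golay.enc k) = flipOn (bitSet (Golay.enc k)) := by
    funext x p
    simp [Leech.flipMask, flipOn, bitSet]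
  rw [e]
  exact h.smul (hN _ (preserves_of_flip ⟨_, ofBits_enc_mem k, (bitSet_eq _).symm⟩))

theorem exists_pivots (hN : ∀ g, PreservesCross g → g ∈ H) (P : Profile)
    (hP : ∀ a ∈ P.piv, ∀ b ∈ P.piv, (Golay.enc a.2).testBit b.1 = (a.1 == b.1))
    {x : GolayPt → ℤ} (hx : InO H x) (hval : ∀ p, (x p).natAbs = P.at' p) :
    ∀ l : List (ℕ × ℕ), (∀ a ∈ l, a ∈ P.piv) → ∃ y, InO H y ∧
      (∀ p, (y p).natAbs = P.at' p) ∧ ∀ a ∈ l, ∀ p, ptIdx p = a.1 → 0 ≤ y p := by
  intro l
  induction l with
  | nil => exact fun _ => ⟨x, hx, hval, by simp⟩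
  | cons a l ih =>
    intro hl
    obtain ⟨y, hy, hyv, hyp⟩ := ih fun b hb => hl b (List.mem_cons_of_mem _ hb)
    by_cases hneg : ∃ p, ptIdx p = a.1 ∧ y p < 0
    · obtain ⟨p0, hp0, hp0'⟩ := hneg
      refine ⟨Leech.flipMask (Golay.enc a.2) y, hy.flipMask hN _, fun p => ?_, fun b hb p hp => ?_⟩
      · simp only [Leech.flipMask]
        split_ifs <;> simp [hyv p]
      · have hbit := hP a (hl a List.mem_cons_self) b (hl b hb)
        simp only [Leech.flipMask, hp, hbit, beq_iff_eq]
        split_ifs with h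
        · have : p = p0 := ptIdx_injective (by rw [hp, hp0, h])
          subst this
          omega
        · rcases List.mem_cons.mp hb with rfl | hb
          · exact absurd rfl h
          · exact hyp b hb p hp
    · push Not at hneg
      refine ⟨y, hy, hyv, fun b hb p hp => ?_⟩
      rcases List.mem_cons.mp hb with rfl | hb
      · exact hneg p hp
      · exact hyp b hb p hp

/-- A test at every normalised sign pattern of an even profile. -/
def evenB (test : (GolayPt → ℤ) → Bool) (P : Profile) : Bool :=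
  ((List.range 24).all fun i => P.vals.getD i 0 % 2 == 0) &&
  (P.piv.all fun a => P.piv.all fun b => (Golay.enc a.2).testBit b.1 == (a.1 == b.1)) &&
  ((List.range 24).all fun i =>
    P.vals.getD i 0 == 0 || (P.piv.map Prod.fst).contains i || P.free.contains i) &&
  (P.free.sublists.all fun negs =>
    (((List.range 24).map fun i => profVec P negs (ptOf i)).sum % 8 != 0) ||
      test (profVec P negs))

theorem of_evenB (hN : ∀ g, PreservesCross g → g ∈ H) {test : (GolayPt → ℤ) → Bool} {P : Profile}
    (h : evenB test P = true) {x : GolayPt → ℤ} (hx : InO H x) {g : Equiv.Perm GolayPt}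
    (hg : g ∈ M24) (hval : ∀ p, (x p).natAbs = P.at' (g p)) :
    ∃ r, InO H r ∧ test r = true := by
  simp only [evenB, Bool.and_eq_true, List.all_eq_true, List.mem_range, beq_iff_eq,
    Bool.or_eq_true, List.contains_iff_mem, bne_iff_ne] at h
  obtain ⟨⟨⟨heven, hP⟩, hcov⟩, hcert⟩ := h
  obtain ⟨y, hy, hyv, hyp⟩ := exists_pivots hN P hP (hx.comp hN (inv_mem hg))
    (fun p => by
      show (x (g⁻¹ p)).natAbs = _
      rw [hval]; simp) P.piv fun a ha => ha
  set negs := P.free.filter fun i => decide (y (ptOf i) < 0) with hnegs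
  have hy_eq : y = profVec P negs := by
    funext p
    have hv := hyv p
    simp only [profVec, hnegs, List.contains_iff_mem, List.mem_filter, ptOf_ptIdx,
      decide_eq_true_eq]
    split_ifs with hc
    · omega
    · rcases hcov (ptIdx p) (ptIdx_lt p) with (h0 | h0) | h0
      · have : P.at' p = 0 := h0
        omega
      · obtain ⟨a, ha, hap⟩ := List.mem_map.mp h0
        have := hyp a ha p hap.symm
        omega
      · have : ¬ y p < 0 := fun h => hc ⟨h0, h⟩
        omega
  rcases hcert negs (List.mem_sublists.mpr List.filter_sublist) with h8 | hw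
  · exfalso
    apply h8
    obtain ⟨hp, -, hs⟩ := (mem_leechLattice_iff_none y).mp hy.mem
    have hnone : (y none) % 2 = 0 := by
      have := hyv none
      have : P.at' none % 2 = 0 := heven (ptIdx none) (ptIdx_lt none)
      omega
    rw [← sum_ptOf, ← hy_eq]
    simp only [Int.ModEq] at hs
    omega
  · exact ⟨y, hy, hy_eq ▸ hw⟩

/-- A test at the normalised vector of an odd profile. -/
def oddB (test : (GolayPt → ℤ) → Bool) (P : Profile) : Bool :=
  ((List.range 24).all fun i => P.vals.getD i 0 % 2 == 1) && test (oddVec P)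

theorem of_oddB (hN : ∀ g, PreservesCross g → g ∈ H) {test : (GolayPt → ℤ) → Bool} {P : Profile}
    (h : oddB test P = true) {x : GolayPt → ℤ} (hx : InO H x) {g : Equiv.Perm GolayPt}
    (hg : g ∈ M24) (hval : ∀ p, (x p).natAbs = P.at' (g p)) :
    ∃ r, InO H r ∧ test r = true := by
  simp only [oddB, Bool.and_eq_true, List.all_eq_true, List.mem_range, beq_iff_eq] at h
  obtain ⟨hodd, hw⟩ := h
  have hy := hx.comp hN (inv_mem hg)
  set y := x ∘ ⇑(g⁻¹) with hydef
  have hyv : ∀ p, (y p).natAbs = P.at' p := fun p => by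
    show (x (g⁻¹ p)).natAbs = _
    rw [hval]; simp
  have hodd' : ∀ p, P.at' p % 2 = 1 := fun p => hodd (ptIdx p) (ptIdx_lt p)
  obtain ⟨m, hm, hp, -, hwd⟩ := exists_parity01 hy.mem
  have hm1 : m = 1 := by
    have := hyv none; have := hodd' none; have := hp none
    simp only [Int.ModEq] at this
    rcases hm with rfl | rfl <;> omega
  subst hm1
  obtain ⟨k, -, hk⟩ := (mem_golayCode_iff _).mp hwd
  have hflip : Leech.flipMask (Golay.enc k) y = oddVec P := by
    funext p
    have hkp := congrFun hk p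
    have hv := hyv p
    have ho := hodd' p
    have hpar := hp p
    simp only [Int.ModEq] at hpar
    simp only [Leech.flipMask, oddVec]
    by_cases hbit : (Golay.enc k).testBit (ptIdx p)
    · have h1 : word y 1 p ≠ 0 := by
        rw [hkp, ofBits_apply_ne_zero]; exact hbit
      simp only [word, intCast_zmod2_ne_zero_iff] at h1
      rw [if_pos hbit]
      split_ifs <;> omega
    · have h1 : ¬ word y 1 p ≠ 0 := by
        rw [hkp, ofBits_apply_ne_zero]; exact hbit
      simp only [word, intCast_zmod2_ne_zero_iff] at h1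
      rw [if_neg hbit]
      split_ifs <;> omega
  exact ⟨_, hy.flipMask hN k, by rw [hflip]; exact hw⟩

/-! ### Words -/

theorem cross_of_hasAbs {x : GolayPt → ℤ} (hN : sqNorm x = 64) (h : hasAbs 8 x = true) :
    ∃ j, x = Leech.cross j ∨ x = -Leech.cross j := by
  classical
  simp only [hasAbs, List.any_eq_true, List.mem_range, beq_iff_eq] at h
  obtain ⟨i, -, hi⟩ := h
  refine ⟨ptOf i, ?_⟩
  have h8 : (x (ptOf i)) ^ 2 = 64 := by rw [← Int.natAbs_sq, hi]; norm_num
  have hz : ∀ p, p ≠ ptOf i → x p = 0 := by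
    intro p hp
    have h1 := Finset.sum_le_sum_of_subset_of_nonneg (f := fun q => x q ^ 2)
      (Finset.subset_univ ({ptOf i, p} : Finset GolayPt)) (fun q _ _ => sq_nonneg _)
    rw [Finset.sum_pair hp.symm] at h1
    have h2 : (∑ q, x q ^ 2) = 64 := hN
    have h3 := sq_nonneg (x p)
    have h4 : x p ^ 2 = 0 := by omega
    exact pow_eq_zero_iff two_ne_zero |>.mp h4
  rcases Int.natAbs_eq (x (ptOf i)) with e | e <;> rw [hi] at e
  · refine Or.inl (funext fun p => ?_)
    by_cases hp : p = ptOf i
    · subst hp; simp [Leech.cross, e]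
    · simp [Leech.cross, hp, hz p hp]
  · refine Or.inr (funext fun p => ?_)
    by_cases hp : p = ptOf i
    · subst hp; simp [Leech.cross, e]
    · simp [Leech.cross, hp, hz p hp]

theorem wordApp2_append : ∀ (u v : List ℕ) (x : GolayPt → ℤ),
    wordApp2 (u ++ v) x = wordApp2 v (wordApp2 u x)
  | [], _, _ => rfl
  | i :: u, v, x => by simp only [List.cons_append, wordApp2]; exact wordApp2_append u v _

theorem wordAut_append (u v : List ℕ) : wordAut (u ++ v) = wordAut v * wordAut u := by
  refine Subtype.ext (Equiv.ext fun x => Subtype.ext ?_)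
  show (wordAut (u ++ v) • x).1 = ((wordAut v * wordAut u) • x).1
  rw [mul_smul, wordAut_smul, wordAut_smul, wordAut_smul, wordApp2_append]

theorem wordAut_mem_of_InO (hN : ∀ g, PreservesCross g → g ∈ H) {r : GolayPt → ℤ}
    (hr : InO H r) {W : List ℕ} (h : hasAbs 8 (wordApp2 W r) = true) : wordAut W ∈ H := by
  obtain ⟨g, hg, he⟩ := hr
  have hp : PreservesCross (wordAut W * g) := by
    refine preservesCross_iff.mpr ?_
    have e : ((wordAut W * g) • crossL none).1 = wordApp2 W r := by
      rw [mul_smul, wordAut_smul, he]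
    rw [e]
    exact cross_of_hasAbs (by rw [← e]; exact ((wordAut W * g).2.2 _).trans (sqNorm_cross none)) h
  have := mul_mem (hN _ hp) (inv_mem hg)
  rwa [mul_inv_cancel_right] at this

theorem wordAut_mem_of_mono (hN : ∀ g, PreservesCross g → g ∈ H) {n : List ℕ}
    (h : hasAbs 8 (wordApp2 n vec8) = true) : wordAut n ∈ H :=
  wordAut_mem_of_InO hN ⟨1, one_mem _, by rw [one_smul]; rfl⟩ h

/-- A certificate for one normalised vector. -/
def certB (c : List ℕ × List ℕ) (r : GolayPt → ℤ) : Bool :=
  hasAbs 8 (wordApp2 c.1 r) && hasAbs 8 (wordApp2 c.2 vec8) &&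
    allAbs 4 (wordApp2 (c.1 ++ c.2 ++ c.1) vec8)

/-- Some certificate applies. -/
def anyB (L : List (List ℕ × List ℕ)) (r : GolayPt → ℤ) : Bool := L.any (certB · r)

theorem exists_four_of_anyB (hN : ∀ g, PreservesCross g → g ∈ H) {L : List (List ℕ × List ℕ)}
    {r : GolayPt → ℤ} (hr : InO H r) (h : anyB L r = true) :
    ∃ y, InO H y ∧ allAbs 4 y = true := by
  simp only [anyB, certB, List.any_eq_true, Bool.and_eq_true] at h
  obtain ⟨⟨W, n⟩, -, ⟨hW, hn⟩, h4⟩ := h
  have hWH := wordAut_mem_of_InO hN hr hW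
  have hnH := wordAut_mem_of_mono hN hn
  refine ⟨_, ⟨wordAut (W ++ n ++ W), ?_, ?_⟩, h4⟩
  · rw [wordAut_append, wordAut_append]
    exact mul_mem hWH (mul_mem hnH hWH)
  · rw [wordAut_smul]; rfl

end Cfsg.Agent.CrossMax
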