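import Cfsg.Agent.CrossMax.Basic
import Cfsg.Agent.Leech.Generation

/-!
The stabiliser of the standard cross is a maximal subgroup of `Co0`.
-/

set_option autoImplicit false
set_option Elab.async false

namespace Cfsg.Agent.CrossMax

open Cfsg Cfsg.Agent.Golay Cfsg.Agent.Leech

variable {H : Subgroup Co0}

theorem four_check : evenB (fun r => hasAbs 8 (wordApp2 [2300, 0] r)) a64four = true ∧
    hasAbs 8 (wordApp2 [2300] vec8) = true := by decide +kernel

theorem six_check : evenB (anyB certSix) a64six = true := by decide +kernel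

theorem oct_check : a64oct.all (evenB (anyB certOct)) = true := by decide +kernel

theorem dod_check : a64dod.all (evenB (anyB certDod)) = true := by decide +kernel

theorem sixteen_check : evenB (anyB certSixteen) a64sixteen = true := by decide +kernel

theorem odd_check : oddB (anyB certFive) b64five = true ∧ oddB (anyB certThree) b64three = true := by
  decide +kernel

theorem eq_top_of_four (hN : ∀ g, PreservesCross g → g ∈ H) {x : GolayPt → ℤ} (hO : InO H x)
    (h : allAbs 4 x = true) : H = ⊤ := by
  have hx := hO.mem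
  obtain ⟨h24, hsq⟩ := short_equations (x := x) hO.sqNorm_eq.le
  rw [hO.sqNorm_eq] at hsq
  have hz : ∀ v, v ≠ 0 → v ≠ 4 → absCount x v = 0 := fun v h0 h4 =>
    absCount_eq_zero fun p => by rcases abs_cases_of_allAbs h p with e | e <;> omega
  rw [hz 1 (by norm_num) (by norm_num), hz 2 (by norm_num) (by norm_num),
    hz 3 (by norm_num) (by norm_num), hz 5 (by norm_num) (by norm_num),
    hz 6 (by norm_num) (by norm_num), hz 7 (by norm_num) (by norm_num),
    hz 8 (by norm_num) (by norm_num)] at h24 hsq
  have h4 : absCount x 4 = 4 := by omega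
  obtain ⟨a, ha⟩ := Finset.card_pos.mp (show 0 < (absSet x 4).card by
    rw [show (absSet x 4).card = 4 from h4]; norm_num)
  obtain ⟨g, hg, hga, hgT⟩ := exists_move_point_set (k := 3) (by norm_num) (p := a)
    (T := (absSet x 4).erase a) (Finset.notMem_erase _ _)
    (by rw [Finset.card_erase_of_mem ha, show (absSet x 4).card = 4 from h4])
  obtain ⟨r, hr, hW⟩ := of_evenB hN four_check.1 hO hg (fun p => by
    rw [at_table64.2.1]
    have hq : (g p = basePt 0 ∨ g p = basePt 1 ∨ g p = basePt 2 ∨ g p = basePt 3) ↔
        (x p).natAbs = 4 := by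
      have h := hgT p
      simp only [Finset.mem_erase, Nat.exists_lt_succ_right, Nat.not_lt_zero, false_and,
        exists_false, false_or, or_assoc, mem_absSet] at h
      rw [← h, ← hga, g.injective.eq_iff]
      by_cases hpa : p = a
      · simp [hpa, mem_absSet.mp ha]
      · simp [hpa]
    split_ifs with h'
    · exact hq.mp h'
    · rcases abs_cases_of_allAbs h p with e | e
      · exact e
      · exact absurd (hq.mpr e) h')
  have hWH := wordAut_mem_of_InO hN hr hW
  have hfH := wordAut_mem_of_mono hN four_check.2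
  rw [show [2300, 0] = [2300] ++ [0] from rfl, wordAut_append] at hWH
  have h0 := mul_mem hWH (inv_mem hfH)
  rw [mul_inv_cancel_right] at h0
  refine eq_top_of_monomial_xi (fun σ hσ c hc => hN _ (monomial_preservesCross hσ hc)) ?_
  have e : wordAut [0] = toCo0 isAut_xi := by
    refine Subtype.ext (Equiv.ext fun v => Subtype.ext ?_)
    show (wordAut [0] • v).1 = (toCo0 isAut_xi • v).1
    rw [wordAut_smul]
    rfl
  exact e ▸ h0

theorem eq_top_of_not_preserves (hN : ∀ g, PreservesCross g → g ∈ H) {g : Co0} (hg : g ∈ H)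
    (hgN : ¬ PreservesCross g) : H = ⊤ := by
  have hO : InO H (g • crossL none).1 := ⟨g, hg, rfl⟩
  set x := (g • crossL none).1 with hxdef
  have hx := hO.mem
  have hN64 := hO.sqNorm_eq
  suffices h : ∃ y, InO H y ∧ allAbs 4 y = true by
    obtain ⟨y, hy, h4⟩ := h
    exact eq_top_of_four hN hy h4
  rcases shape64 hx hN64 with ⟨-, e, e0⟩ | ⟨-, e, e0⟩ | ⟨he, e, e2, e0⟩ | ⟨he, e2, e4, e0⟩ |
      ⟨he, e2, e4, e0⟩ | ⟨he, e, e0⟩ | ⟨-, e5, e3, e1⟩ | ⟨-, e3, e1⟩
  · exfalso
    obtain ⟨a, ha⟩ := Finset.card_eq_one.mp e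
    have h8 : (x a).natAbs = 8 := mem_absSet.mp (by rw [ha]; exact Finset.mem_singleton_self a)
    refine hgN (preservesCross_iff.mpr (cross_of_hasAbs hN64 ?_))
    simp only [hasAbs, List.any_eq_true, List.mem_range, beq_iff_eq]
    exact ⟨ptIdx a, ptIdx_lt a, by rw [ptOf_ptIdx]; exact h8⟩
  · have habs := abs_two (x := x) (show (4 : ℕ) ≠ 0 by norm_num) (by omega)
    refine ⟨x, hO, ?_⟩
    simp only [allAbs, List.all_eq_true, List.mem_range, Bool.or_eq_true, beq_iff_eq]
    exact fun i _ => (habs (ptOf i)).symm
  · obtain ⟨a, hT⟩ := Finset.card_eq_one.mp e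
    have habs := abs_three (x := x) (show (2 : ℕ) ≠ 6 by norm_num) (show (2 : ℕ) ≠ 0 by norm_num)
      (show (6 : ℕ) ≠ 0 by norm_num) (by omega)
    obtain ⟨hsup, hcard, -⟩ := even_support hx he hN64.le
    have ho : absSet x 2 ∪ absSet x 6 ∈ octads := ⟨hsup, by omega⟩
    have ha : a ∈ absSet x 2 ∪ absSet x 6 := by simp [hT]
    obtain ⟨q0, hq0⟩ := exists_point_notMem (o := absSet x 2 ∪ absSet x 6) (by omega)
    obtain ⟨g, hg, hgo, hga, -⟩ := exists_move_octad ho ha hq0
    obtain ⟨r, hr, hc⟩ := of_evenB hN six_check hO hg (fun p => by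
      rw [at_table64.2.2.1]
      simp only [← hga, g.injective.eq_iff]
      simp only [smul_mem_iff hgo, Finset.mem_union]
      have hp : (x p).natAbs = 6 ↔ p = a := by rw [← mem_absSet, hT, Finset.mem_singleton]
      split_ifs with h h'
      · exact hp.mpr h
      · rcases h' with h' | h'
        · exact mem_absSet.mp h'
        · exact absurd (hp.mp (mem_absSet.mp h')) h
      · rcases habs p with e | e | e
        · exact absurd (Or.inl (mem_absSet.mpr e)) h'
        · exact absurd (hp.mp e) h
        · exact e)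
    exact exists_four_of_anyB hN hr hc
  · have habs := abs_three (x := x) (show (2 : ℕ) ≠ 4 by norm_num) (show (2 : ℕ) ≠ 0 by norm_num)
      (show (4 : ℕ) ≠ 0 by norm_num) (by omega)
    have ho : absSet x 2 ∈ octads := ⟨absSet_two_support hx he hN64.le fun p => by
      rcases habs p with e | e | e <;> omega, e2⟩
    obtain ⟨p0, hp0⟩ := Finset.card_pos.mp (show 0 < (absSet x 2).card by
      rw [show (absSet x 2).card = 8 from e2]; norm_num)
    obtain ⟨a, b, hab, hT⟩ := Finset.card_eq_two.mp e4
    have hout : ∀ q ∈ absSet x 4, q ∉ absSet x 2 := fun q h h' => by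
      rw [mem_absSet] at h h'; omega
    have ha : a ∉ absSet x 2 := hout a (by simp [hT])
    obtain ⟨g, hg, hgo, -, hga⟩ := exists_move_octad ho hp0 ha
    obtain ⟨P, hPmem, hP⟩ := at_oct_family (g b)
      (fun h => hout b (by simp [hT]) ((smul_mem_iff hgo b).mp h))
      (fun h => hab (g.injective (hga.trans h.symm)))
    obtain ⟨r, hr, hc⟩ := of_evenB hN (List.all_eq_true.mp oct_check P hPmem) hO hg (fun p => by
      rw [hP]
      simp only [← hga, g.injective.eq_iff]
      simp only [smul_mem_iff hgo]
      have hp : (x p).natAbs = 4 ↔ (p = a ∨ p = b) := by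
        rw [← mem_absSet, hT, Finset.mem_insert, Finset.mem_singleton]
      split_ifs with h h'
      · exact mem_absSet.mp h
      · exact hp.mpr h'
      · rcases habs p with e | e | e
        · exact absurd (mem_absSet.mpr e) h
        · exact absurd (hp.mp e) h'
        · exact e)
    exact exists_four_of_anyB hN hr hc
  · have habs := abs_three (x := x) (show (2 : ℕ) ≠ 4 by norm_num) (show (2 : ℕ) ≠ 0 by norm_num)
      (show (4 : ℕ) ≠ 0 by norm_num) (by omega)
    have hd : absSet x 2 ∈ dodecads := ⟨absSet_two_support hx he hN64.le fun p => by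
      rcases habs p with e | e | e <;> omega, e2⟩
    obtain ⟨a, hT⟩ := Finset.card_eq_one.mp e4
    obtain ⟨g, hg, hgo⟩ := exists_move_dodecad hd
    obtain ⟨P, hPmem, hP⟩ := at_dod_family (g a) (fun h => by
      have h' : a ∈ absSet x 4 := by rw [hT]; exact Finset.mem_singleton_self a
      have := mem_absSet.mp ((smul_mem_iff hgo a).mp h)
      rw [mem_absSet] at h'; omega)
    obtain ⟨r, hr, hc⟩ := of_evenB hN (List.all_eq_true.mp dod_check P hPmem) hO hg (fun p => by
      rw [hP]
      simp only [g.injective.eq_iff]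
      simp only [smul_mem_iff hgo]
      have hp : (x p).natAbs = 4 ↔ p = a := by rw [← mem_absSet, hT, Finset.mem_singleton]
      split_ifs with h h'
      · exact mem_absSet.mp h
      · exact hp.mpr h'
      · rcases habs p with e | e | e
        · exact absurd (mem_absSet.mpr e) h
        · exact absurd (hp.mp e) h'
        · exact e)
    exact exists_four_of_anyB hN hr hc
  · have habs := abs_two (x := x) (show (2 : ℕ) ≠ 0 by norm_num) (by omega)
    obtain ⟨u, hu, hus⟩ := absSet_two_support hx he hN64.le fun p => by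
      rcases habs p with e | e <;> omega
    have ho : absSet x 0 ∈ octads := by
      refine ⟨⟨u + 1, add_mem hu one_mem_golayCode, ?_⟩, e0⟩
      ext p
      have h1 : ∀ a : ZMod 2, a + 1 ≠ 0 ↔ ¬ a ≠ 0 := by decide
      have h2' : p ∈ absSet x 2 ↔ u p ≠ 0 := by rw [← hus]; simp [support₂]
      simp only [support₂, Finset.mem_filter, Finset.mem_univ, true_and, Pi.add_apply, Pi.one_apply,
        h1, ← h2', mem_absSet]
      rcases habs p with e | e <;> omega
    obtain ⟨p0, hp0⟩ := Finset.card_pos.mp (show 0 < (absSet x 0).card by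
      rw [show (absSet x 0).card = 8 from e0]; norm_num)
    obtain ⟨q0, hq0⟩ := exists_point_notMem (o := absSet x 0)
      (by rw [show (absSet x 0).card = 8 from e0]; norm_num)
    obtain ⟨g, hg, hgo, -, -⟩ := exists_move_octad ho hp0 hq0
    obtain ⟨r, hr, hc⟩ := of_evenB hN sixteen_check hO hg (fun p => by
      rw [at_table64.2.2.2.1]
      simp only [smul_mem_iff hgo]
      split_ifs with h
      · exact mem_absSet.mp h
      · rcases habs p with e | e
        · exact e
        · exact absurd (mem_absSet.mpr e) h)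
    exact exists_four_of_anyB hN hr hc
  · obtain ⟨a, hT⟩ := Finset.card_eq_one.mp e5
    have habs := abs_three (x := x) (show (5 : ℕ) ≠ 3 by norm_num) (show (5 : ℕ) ≠ 1 by norm_num)
      (show (3 : ℕ) ≠ 1 by norm_num) (by omega)
    have ha5 : (x a).natAbs = 5 := mem_absSet.mp (by rw [hT]; exact Finset.mem_singleton_self a)
    obtain ⟨g, hg, hga, hgT⟩ := exists_move_point_set (k := 2) (by norm_num) (p := a)
      (T := absSet x 3) (fun h => by rw [mem_absSet] at h; omega) e3
    obtain ⟨r, hr, hc⟩ := of_oddB hN odd_check.1 hO hg (fun p => by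
      rw [at_table64.2.2.2.2.1]
      have hp : (x p).natAbs = 5 ↔ g p = basePt 0 := by
        rw [← mem_absSet, hT, Finset.mem_singleton, ← hga, g.injective.eq_iff]
      have hq : (g p = basePt 1 ∨ g p = basePt 2) ↔ (x p).natAbs = 3 := by
        have h := hgT p
        simp only [Nat.exists_lt_succ_right, Nat.not_lt_zero, false_and, exists_false, false_or,
          mem_absSet] at h
        exact h.symm
      split_ifs with h h'
      · exact hp.mpr h
      · exact hq.mp h'
      · rcases habs p with e | e | e
        · exact absurd (hp.mp e) h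
        · exact absurd (hq.mpr e) h'
        · exact e)
    exact exists_four_of_anyB hN hr hc
  · have habs := abs_two (x := x) (show (3 : ℕ) ≠ 1 by norm_num) (by omega)
    obtain ⟨a, ha⟩ := Finset.card_pos.mp (show 0 < (absSet x 3).card by
      rw [show (absSet x 3).card = 5 from e3]; norm_num)
    obtain ⟨g, hg, hga, hgT⟩ := exists_move_point_set (k := 4) (by norm_num) (p := a)
      (T := (absSet x 3).erase a) (Finset.notMem_erase _ _)
      (by rw [Finset.card_erase_of_mem ha, show (absSet x 3).card = 5 from e3])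
    obtain ⟨r, hr, hc⟩ := of_oddB hN odd_check.2 hO hg (fun p => by
      rw [at_table64.2.2.2.2.2]
      have hq : (g p = basePt 0 ∨ g p = basePt 1 ∨ g p = basePt 2 ∨ g p = basePt 3 ∨
          g p = basePt 4) ↔ (x p).natAbs = 3 := by
        have h := hgT p
        simp only [Finset.mem_erase, Nat.exists_lt_succ_right, Nat.not_lt_zero, false_and,
          exists_false, false_or, or_assoc, mem_absSet] at h
        rw [← h, ← hga, g.injective.eq_iff]
        by_cases hpa : p = a
        · simp [hpa, mem_absSet.mp ha]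
        · simp [hpa]
      split_ifs with h
      · exact hq.mp h
      · rcases habs p with e | e
        · exact absurd (hq.mpr e) h
        · exact e)
    exact exists_four_of_anyB hN hr hc

theorem four_not_preserves : hasAbs 8 (wordApp2 [0] vec8) = false := by decide +kernel

/-- The stabiliser of the standard cross is maximal. -/
theorem isCoatom_cross (H : Subgroup ↥Cfsg.Co0) (hH : (H : Set ↥Cfsg.Co0) = {g : ↥Cfsg.Co0 |
    (∀ v : ↥Cfsg.leechLattice, (v : Cfsg.GolayPt → ℤ) ∈ Cfsg.stdCross →
      ((g • v : ↥Cfsg.leechLattice) : Cfsg.GolayPt → ℤ) ∈ Cfsg.stdCross)}) : IsCoatom H := by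
  have hmem : ∀ g, g ∈ H ↔ PreservesCross g := fun g => Set.ext_iff.mp hH g
  refine ⟨fun htop => ?_, fun K hK => ?_⟩
  · have h := (hmem (toCo0 isAut_xi)).mp (htop ▸ Subgroup.mem_top _)
    obtain ⟨j, hj⟩ := preservesCross_iff.mp h
    have e : (toCo0 isAut_xi • crossL none).1 = wordApp2 [0] vec8 := rfl
    rw [e] at hj
    have : hasAbs 8 (wordApp2 [0] vec8) = true := by
      simp only [hasAbs, List.any_eq_true, List.mem_range, beq_iff_eq]
      refine ⟨ptIdx j, ptIdx_lt j, ?_⟩
      rw [ptOf_ptIdx]
      rcases hj with h' | h' <;> rw [h'] <;> simp [Leech.cross]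
    rw [four_not_preserves] at this
    exact absurd this (by simp)
  · obtain ⟨hle, hne⟩ := lt_iff_le_and_ne.mp hK
    obtain ⟨g, hgK, hgH⟩ : ∃ g ∈ K, g ∉ H := by
      by_contra hc
      push Not at hc
      exact hne (le_antisymm hle hc)
    exact eq_top_of_not_preserves (fun m hm => hle ((hmem m).mpr hm)) hgK
      fun hp => hgH ((hmem g).mpr hp)

end Cfsg.Agent.CrossMax
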